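/-
A strongly closed abelian `2`-subgroup in a group of characteristic two type has a strongly
embedded normalizer.
-/
import Cfsg.Agent.INV.Gold.Basic
import Cfsg.Agent.INV.StrongEmb
import Cfsg.Agent.TECH.SecC
import Cfsg.Agent.PLOC.QdFree

set_option autoImplicit false

namespace CL.SC2

open Cfsg Subgroup CL.MSS CL.Gold
open scoped commutatorElement

variable {G : Type*} [Group G] [Finite G] {A H : Subgroup G}

local instance : Fact (Nat.Prime 2) := ⟨Nat.prime_two⟩

theorem norm_inf (hA : SC A) (hn : pCoreOf 2 H ≤ normalizer (A : Set G)) :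
    H ≤ normalizer ((A ⊓ pCoreOf 2 H : Subgroup G) : Set G) := fun _ hg =>
  mem_normalizer_of_cj_le (cj_le_iff_forall.2 fun _ ha =>
    have := conj_mem_of_normalizes (le_normalizer_pcoreOf (p := 2) H) hg ha.2
    ⟨hA.mem_of_mem_normalizer ha.1 (hn this), this⟩)

theorem le_normalizer_of_le (hA : SC A) (hc : IsMulCommutative A) (hH : ChP 2 H) (hle : A ≤ H) :
    H ≤ normalizer (A : Set G) := by
  have hQ := pcoreOf_isPGroup (p := 2) H
  have nQ := le_normalizer_pcoreOf (p := 2) H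
  have h1 : pCoreOf 2 H ≤ normalizer (A : Set G) := le_sup_right.trans
    (hA.le_normalizer (isPGroup_sup_of_normalizes hA.1 hQ (hle.trans nQ)) le_sup_left)
  have h2 := norm_inf hA h1
  have h3 : A ≤ pCoreOf 2 H := by
    refine le_trans ?_ (le_pcoreOf (N := H ⊓ (secC (pCoreOf 2 H) (A ⊓ pCoreOf 2 H) ⊓
      centralizer ((A ⊓ pCoreOf 2 H : Subgroup G) : Set G))) inf_le_left
      (le_normalizer_inf le_normalizer (le_normalizer_inf (le_normalizer_secC nQ h2)
        (le_normalizer_centralizer h2)))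
      (hH.isPGroup_of_two_step inf_le_left (hQ.to_le inf_le_right)
        ((commutator_mono le_rfl (inf_le_right.trans inf_le_left)).trans (commutator_secC_le _ _))
        (inf_le_right.trans inf_le_right)))
    exact le_inf hle (le_inf (le_secC_iff.2 ⟨hle.trans h2, (commutator_le_inf_of_normalizes h1
      (hle.trans nQ)).trans (inf_comm _ _).le⟩) (le_centralizer_of_comm hc inf_le_left))
  rwa [inf_eq_left.2 h3] at h2

variable (hG : ∀ Q : Subgroup G, IsPGroup 2 Q → Q ≠ ⊥ → ChP 2 (normalizer (Q : Set G)))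
include hG

theorem cj_eq_of_mem (hA : SC A) (hc : IsMulCommutative A) {g a : G} (h1 : a ≠ 1) (ha : a ∈ A)
    (ha' : a ∈ g •ᶜ A) : g •ᶜ A = A := by
  have hQ : IsPGroup 2 (zpowers a) := hA.1.to_le (zpowers_le.2 ha)
  have k : ∀ B : Subgroup G, IsMulCommutative B → a ∈ B → B ≤ normalizer (zpowers a : Set G) :=
    fun B hB e => le_normalizer_of_le_centralizer (le_centralizer_of_comm hB (zpowers_le.2 e))
  have := le_normalizer_of_le hA hc (hG _ hQ (by simpa using h1)) (k A hc ha)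
  exact hA.cj_eq (isPGroup_sup_of_normalizes' hA.1 (isPGroup_cj g hA.1)
    ((k _ (isMulCommutative_cj g hc) ha').trans this)) le_sup_left le_sup_right

theorem exists_le (hA : SC A) (hc : IsMulCommutative A) (h0 : A ≠ ⊥) {Q : Subgroup G}
    (hQ : IsPGroup 2 Q) (hQ0 : Q ≠ ⊥) :
    ∃ g : G, normalizer (Q : Set G) ≤ normalizer ((g •ᶜ A : Subgroup G) : Set G) := by
  have hO := pcoreOf_isPGroup (p := 2) (normalizer (Q : Set G))
  obtain ⟨S, hS, hAS⟩ := exists_sylIn_ge (H := ⊤) hA.1 le_top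
  obtain ⟨g, -, hg⟩ := hS.exists_le_conj hO le_top
  have hB := hA.cj g
  have h1 := hg.trans (hB.le_normalizer (isPGroup_cj g hS.pgroup) (cj_mono g hAS))
  have hBc := isMulCommutative_cj g hc
  have h2 : g •ᶜ A ⊓ pCoreOf 2 (normalizer (Q : Set G)) ≠ ⊥ := fun e =>
    inf_centralizer_ne_bot hO hB.1 h1 (by rwa [ne_eq, cj_eq_bot_iff]) (le_bot_iff.1 (e ▸
      le_inf inf_le_left (inf_le_right.trans fun x hx => (hG Q hQ hQ0).le ⟨centralizer_le_normalizer _
        (centralizer_anti (le_pcoreOf le_normalizer le_rfl hQ) hx), hx⟩)))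
  exact ⟨g, (norm_inf hB h1).trans (le_normalizer_of_le hB hBc (hG _ (hB.1.to_le inf_le_left) h2)
    (le_normalizer_of_le_centralizer (le_centralizer_of_comm hBc inf_le_left)))⟩

theorem isStronglyEmbedded (hA : SC A) (hc : IsMulCommutative A) (h0 : A ≠ ⊥)
    (hn : normalizer (A : Set G) ≠ ⊤) : IsStronglyEmbedded (normalizer (A : Set G)) := by
  refine CL.StrongEmb.isStronglyEmbedded_iff.2 ⟨hn, ?_, fun t ht h2 g hg => ?_⟩
  · obtain ⟨k, hk⟩ := IsPGroup.iff_card.1 hA.1
    refine even_iff_two_dvd.2 (dvd_trans ?_ (card_dvd_of_le le_normalizer))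
    exact hk ▸ dvd_pow_self 2 fun e => h0 (card_eq_one.1 (by rw [hk, e, pow_zero]))
  have hT : IsPGroup 2 (zpowers t) := isPGroup_zpowers (k := 1) (by rw [pow_one, ← h2, pow_orderOf_eq_one])
  obtain ⟨d, hd⟩ := exists_le hG hA hc h0 hT (by
    rw [ne_eq, zpowers_eq_bot]; rintro rfl; simp at h2)
  have key : ∀ u : G, t ∈ normalizer ((u •ᶜ A : Subgroup G) : Set G) → u •ᶜ A = d •ᶜ A := fun u hu => by
    obtain ⟨⟨a, a1, a2⟩, h1⟩ := ne_bot_iff_exists_ne_one.1 (inf_centralizer_ne_bot hT (isPGroup_cj u hA.1)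
      (zpowers_le.2 hu) (by rwa [ne_eq, cj_eq_bot_iff]))
    have e : u •ᶜ A = (u * d⁻¹) •ᶜ (d •ᶜ A) := by rw [← cj_mul, inv_mul_cancel_right]
    rw [e] at a1 ⊢
    refine cj_eq_of_mem hG (hA.cj d) (isMulCommutative_cj d hc) (fun i => h1 (Subtype.ext i)) ?_ a1
    obtain ⟨y, hy, rfl⟩ := mem_cj'.1 a1
    exact (hA.cj d).mem_of_mem_normalizer hy (hd (centralizer_le_normalizer _ a2))
  have e1 := key 1 (by rwa [cj_one])
  have e2 := key g⁻¹ (by rw [← cj_normalizer, mem_cj]; simpa using hg)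
  rw [cj_one] at e1
  exact (inv_mem_iff).1 (mem_normalizer_iff_cj.2 (e2.trans e1.symm))

end CL.SC2
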